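import Cfsg.Agent.Lib.Steiner.Mathieu

/-!
Disjointness counts among the blocks of S(3,6,22), for the two strongly regular graphs.
-/

set_option autoImplicit false

namespace Cfsg.Agent.Lib.Steiner

variable {α : Type*} [Fintype α] [DecidableEq α] {B : Set (Finset α)}
  (hα : Fintype.card α = 22) (hB : Cfsg.IsSteinerSystem 3 6 B)

include hα hB

theorem card22 : (blocks B).card = 77 := by
  have := moment hB (∅ : Finset α) (i := 0) (lam := 77) (by norm_num) (by norm_num) (by rw [hα]; decide)
  simpa using this

theorem through1 (p : α) : ((blocks B).filter fun e => p ∈ e).card = 21 := by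
  have h := through_eq hB (s := {p}) (i := 1) (lam := 21) (Finset.card_singleton p) (by norm_num)
    (by norm_num) (by rw [hα]; decide)
  simpa using h

theorem through2 {p q : α} (hpq : p ≠ q) : ((blocks B).filter fun e => p ∈ e ∧ q ∈ e).card = 5 := by
  have h := through_eq hB (s := {p, q}) (i := 2) (lam := 5) (Finset.card_pair hpq) (by norm_num)
    (by norm_num) (by rw [hα]; decide)
  simpa [Finset.insert_subset_iff] using h

theorem disjoint_self_count {b : Finset α} (hb : b ∈ B) :
    ((blocks B).filter fun e => Disjoint b e).card = 16 := by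
  rw [← (meet22 hα hB hb).1, meetCard]
  congr 1
  ext e
  simp only [Finset.mem_filter, Finset.mem_erase, Finset.disjoint_iff_inter_eq_empty, Finset.card_eq_zero]
  refine ⟨fun h => ⟨⟨fun he => ?_, h.1⟩, h.2⟩, fun h => ⟨h.1.2, h.2⟩⟩
  have h2 := h.2
  rw [he, Finset.inter_self, ← Finset.card_eq_zero, hB.1 b hb] at h2
  omega

theorem through_disjoint {b : Finset α} (hb : b ∈ B) {p : α} :
    ((blocks B).filter fun e => p ∈ e ∧ Disjoint b e).card = if p ∈ b then 0 else 6 := by
  split
  case isTrue hp =>
    rw [Finset.card_eq_zero, Finset.filter_eq_empty_iff]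
    exact fun e _ he => Finset.disjoint_left.1 he.2 hp he.1
  case isFalse hp =>
    have hd := Finset.sum_card_bipartiteAbove_eq_sum_card_bipartiteBelow
      (s := b) (t := (blocks B).filter fun e => p ∈ e) (fun q e => q ∈ e)
    have h1 : ∀ q ∈ b, (((blocks B).filter fun e => p ∈ e).bipartiteAbove (fun q e => q ∈ e) q).card = 5 :=
      fun q hq => by
        rw [Finset.bipartiteAbove, Finset.filter_filter]
        exact through2 hα hB fun e => hp (e ▸ hq)
    rw [Finset.sum_congr rfl h1, Finset.sum_const, hB.1 b hb] at hd
    have h2 : ∀ e ∈ (blocks B).filter fun e => p ∈ e,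
        (b.bipartiteBelow (fun q e => q ∈ e) e).card = if Disjoint b e then 0 else 2 := by
      intro e he
      rw [Finset.mem_filter, mem_blocks] at he
      have hne : b ≠ e := fun h => hp (h ▸ he.2)
      rw [show b.bipartiteBelow (fun q e => q ∈ e) e = b ∩ e by
        ext; simp [Finset.bipartiteBelow]]
      split
      case isTrue h => rw [Finset.disjoint_iff_inter_eq_empty.1 h, Finset.card_empty]
      case isFalse h =>
        refine (inter22 hα hB hb he.1 hne).resolve_left fun h0 => h ?_
        rw [Finset.disjoint_iff_inter_eq_empty, ← Finset.card_eq_zero, h0]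
    rw [Finset.sum_congr rfl h2, Finset.sum_ite, Finset.sum_const_zero, zero_add, Finset.sum_const,
      Finset.filter_filter, smul_eq_mul, smul_eq_mul] at hd
    have hsplit := Finset.card_filter_add_card_filter_not (s := (blocks B).filter fun e => p ∈ e)
      (fun e => Disjoint b e)
    rw [Finset.filter_filter, Finset.filter_filter, through1 hα hB p] at hsplit
    omega

theorem pair_sum {b c : Finset α} (hb : b ∈ B) (hc : c ∈ B) :
    ∑ e ∈ blocks B, (b ∩ e).card * (c ∩ e).card = 180 + 16 * (b ∩ c).card := by
  have hd := Finset.sum_card_bipartiteAbove_eq_sum_card_bipartiteBelow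
    (s := b ×ˢ c) (t := blocks B) (fun pq e => pq.1 ∈ e ∧ pq.2 ∈ e)
  have h1 : ∀ pq ∈ b ×ˢ c, ((blocks B).bipartiteAbove (fun pq e => pq.1 ∈ e ∧ pq.2 ∈ e) pq).card =
      if pq.1 = pq.2 then 21 else 5 := by
    intro pq _
    split
    case isTrue h => simp only [Finset.bipartiteAbove, h, and_self]; exact through1 hα hB _
    case isFalse h => exact through2 hα hB h
  have hdiag : ((b ×ˢ c).filter fun pq => pq.1 = pq.2).card = (b ∩ c).card :=
    Finset.card_bij' (fun pq _ => pq.1) (fun x _ => (x, x))
      (fun pq h => by
        simp only [Finset.mem_filter, Finset.mem_product] at h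
        exact Finset.mem_inter.2 ⟨h.1.1, h.2 ▸ h.1.2⟩)
      (fun x h => by
        rw [Finset.mem_inter] at h
        simp [h.1, h.2])
      (fun pq h => by
        simp only [Finset.mem_filter] at h
        exact Prod.ext rfl h.2)
      (fun x _ => rfl)
  have htot : (b ×ˢ c).card = 36 := by rw [Finset.card_product, hB.1 b hb, hB.1 c hc]
  have hsplit := Finset.card_filter_add_card_filter_not (s := b ×ˢ c) (fun pq => pq.1 = pq.2)
  rw [hdiag, htot] at hsplit
  rw [Finset.sum_congr rfl h1, Finset.sum_ite, Finset.sum_const, Finset.sum_const, hdiag,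
    smul_eq_mul, smul_eq_mul] at hd
  rw [Finset.sum_congr rfl (fun e _ => show (b ∩ e).card * (c ∩ e).card =
    ((b ×ˢ c).bipartiteBelow (fun pq e => pq.1 ∈ e ∧ pq.2 ∈ e) e).card by
      rw [← Finset.card_product]; congr 1; ext ⟨x, y⟩
      simp only [Finset.bipartiteBelow, Finset.mem_filter, Finset.mem_product, Finset.mem_inter]
      tauto), ← hd]
  omega

/-- The number of blocks disjoint from two distinct blocks. -/
theorem disjoint_both {b c : Finset α} (hb : b ∈ B) (hc : c ∈ B) (hbc : b ≠ c) :
    ((blocks B).filter fun e => Disjoint b e ∧ Disjoint c e).card = 2 * (b ∩ c).card := by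
  classical
  set S := ((blocks B).erase b).erase c with hS
  have hcS : c ∈ (blocks B).erase b := Finset.mem_erase.2 ⟨hbc.symm, mem_blocks.2 hc⟩
  have hsum := pair_sum hα hB hb hc
  rw [← Finset.add_sum_erase _ _ (mem_blocks.2 hb), ← Finset.add_sum_erase _ _ hcS, Finset.inter_self,
    Finset.inter_self, hB.1 b hb, hB.1 c hc, Finset.inter_comm c b, ← hS] at hsum
  have hval : ∀ e ∈ S, (b ∩ e).card * (c ∩ e).card = if ¬ Disjoint b e ∧ ¬ Disjoint c e then 4 else 0 := by
    intro e he
    simp only [S, Finset.mem_erase, mem_blocks] at he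
    have h1 := inter22 hα hB hb he.2.2 (Ne.symm he.2.1)
    have h2 := inter22 hα hB hc he.2.2 (Ne.symm he.1)
    simp only [Finset.disjoint_iff_inter_eq_empty, ← Finset.card_eq_zero]
    rcases h1 with h1 | h1 <;> rcases h2 with h2 | h2 <;> rw [h1, h2] <;> simp
  rw [Finset.sum_congr rfl hval, Finset.sum_ite, Finset.sum_const_zero, add_zero, Finset.sum_const,
    smul_eq_mul] at hsum
  -- inclusion–exclusion on `S`
  have hbe : ¬ Disjoint b b := fun h => by
    rw [disjoint_self, Finset.bot_eq_empty] at h
    have := hB.1 b hb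
    rw [h, Finset.card_empty] at this
    omega
  have hcard : S.card = 75 := by
    rw [hS, Finset.card_erase_of_mem hcS, Finset.card_erase_of_mem (mem_blocks.2 hb), card22 hα hB]
  have hall : ∀ e, Disjoint b e ∧ Disjoint c e → e ≠ b ∧ e ≠ c := fun e h =>
    ⟨fun he => hbe (he ▸ h.1), fun he => by
      have h2 := he ▸ h.2
      rw [disjoint_self, Finset.bot_eq_empty] at h2
      have := hB.1 c hc
      rw [h2, Finset.card_empty] at this
      omega⟩
  have e0 : ((blocks B).filter fun e => Disjoint b e ∧ Disjoint c e) =
      S.filter fun e => Disjoint b e ∧ Disjoint c e := by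
    ext e
    simp only [S, Finset.mem_filter, Finset.mem_erase]
    exact ⟨fun h => ⟨⟨(hall e h.2).2, (hall e h.2).1, h.1⟩, h.2⟩, fun h => ⟨h.1.2.2, h.2⟩⟩
  have hbcount : (S.filter fun e => Disjoint b e).card + (if Disjoint b c then 1 else 0) = 16 := by
    rw [← disjoint_self_count hα hB hb]
    have e1 : (blocks B).filter (fun e => Disjoint b e) =
        (S.filter fun e => Disjoint b e) ∪ ({c} : Finset (Finset α)).filter (fun e => Disjoint b e) := by
      ext e
      simp only [S, Finset.mem_filter, Finset.mem_erase, Finset.mem_union, Finset.mem_singleton]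
      constructor
      · intro h
        by_cases hec : e = c
        · exact Or.inr ⟨hec, h.2⟩
        · exact Or.inl ⟨⟨hec, fun he => hbe (he ▸ h.2), h.1⟩, h.2⟩
      · rintro (⟨⟨-, -, h1⟩, h2⟩ | ⟨rfl, h2⟩)
        · exact ⟨h1, h2⟩
        · exact ⟨mem_blocks.2 hc, h2⟩
    rw [e1, Finset.card_union_of_disjoint]
    · congr 1
      rw [Finset.filter_singleton]
      split <;> simp
    · rw [Finset.disjoint_left]
      intro e h1 h2
      simp only [S, Finset.mem_filter, Finset.mem_erase, Finset.mem_singleton] at h1 h2
      exact h1.1.1 h2.1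
  have hccount : (S.filter fun e => Disjoint c e).card + (if Disjoint b c then 1 else 0) = 16 := by
    rw [← disjoint_self_count hα hB hc]
    have e1 : (blocks B).filter (fun e => Disjoint c e) =
        (S.filter fun e => Disjoint c e) ∪ ({b} : Finset (Finset α)).filter (fun e => Disjoint c e) := by
      ext e
      simp only [S, Finset.mem_filter, Finset.mem_erase, Finset.mem_union, Finset.mem_singleton]
      constructor
      · intro h
        by_cases heb : e = b
        · exact Or.inr ⟨heb, h.2⟩
        · refine Or.inl ⟨⟨fun he => ?_, heb, h.1⟩, h.2⟩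
          have h2 := he ▸ h.2
          rw [disjoint_self, Finset.bot_eq_empty] at h2
          have := hB.1 c hc
          rw [h2, Finset.card_empty] at this
          omega
      · rintro (⟨⟨-, -, h1⟩, h2⟩ | ⟨rfl, h2⟩)
        · exact ⟨h1, h2⟩
        · exact ⟨mem_blocks.2 hb, h2⟩
    rw [e1, Finset.card_union_of_disjoint]
    · congr 1
      rw [Finset.filter_singleton]
      simp only [disjoint_comm (a := c) (b := b)]
      split <;> simp
    · rw [Finset.disjoint_left]
      intro e h1 h2
      simp only [S, Finset.mem_filter, Finset.mem_erase, Finset.mem_singleton] at h1 h2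
      exact h1.1.2.1 h2.1
  have hu := Finset.card_union_add_card_inter (S.filter fun e => Disjoint b e) (S.filter fun e => Disjoint c e)
  rw [← Finset.filter_or, ← Finset.filter_and] at hu
  have hn := Finset.card_filter_add_card_filter_not (s := S) (fun e => Disjoint b e ∨ Disjoint c e)
  simp only [not_or] at hn
  rw [e0]
  rcases inter22 hα hB hb hc hbc with h | h
  · have hd : Disjoint b c := by rw [Finset.disjoint_iff_inter_eq_empty, ← Finset.card_eq_zero, h]
    rw [if_pos hd] at hbcount hccount
    rw [h] at hsum ⊢
    omega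
  · have hd : ¬ Disjoint b c := by
      rw [Finset.disjoint_iff_inter_eq_empty, ← Finset.card_eq_zero, h]; omega
    rw [if_neg hd] at hbcount hccount
    rw [h] at hsum ⊢
    omega

end Cfsg.Agent.Lib.Steiner
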