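import Cfsg.Prelude.Def_SporadicCombinatorics
import Mathlib

/-!
Isomorphisms of point-block graphs, and the stabilizer of the extra vertex.
-/

set_option autoImplicit false

namespace Cfsg.Agent.Lib.Steiner

open Cfsg
open scoped Pointwise

variable {α β : Type*} [DecidableEq β] {B : Set (Finset α)} {B' : Set (Finset β)}

/-- The map of blocks. -/
noncomputable def blockMap (e : α ≃ β) (h : (fun b => b.image e) '' B = B') : B ≃ B' :=
  (Equiv.Set.image _ B (Finset.image_injective e.injective)).trans (Equiv.setCongr h)

theorem coe_blockMap (e : α ≃ β) (h : (fun b => b.image e) '' B = B') (b : B) :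
    (blockMap e h b : Finset β) = (b : Finset α).image e := rfl

/-- The vertex map. -/
noncomputable def vertexMap (e : α ≃ β) (h : (fun b => b.image e) '' B = B') :
    Option (α ⊕ B) ≃ Option (β ⊕ B') := Equiv.optionCongr (Equiv.sumCongr e (blockMap e h))

theorem rel_vertexMap (e : α ≃ β) (h : (fun b => b.image e) '' B = B') (u v : Option (α ⊕ B)) :
    pointBlockRel B' (vertexMap e h u) (vertexMap e h v) ↔ pointBlockRel B u v := by
  rcases u with _ | a | b <;> rcases v with _ | a' | c
  all_goals first
    | exact Iff.rfl
    | skip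
  · show e a ∈ (blockMap e h c : Finset β) ↔ a ∈ (c : Finset α)
    rw [coe_blockMap, e.injective.mem_finset_image]
  · show Disjoint (blockMap e h b : Finset β) (blockMap e h c : Finset β) ↔ Disjoint (b : Finset α) (c : Finset α)
    rw [coe_blockMap, coe_blockMap, Finset.disjoint_image e.injective]

/-- The graph isomorphism. -/
noncomputable def pbIso (e : α ≃ β) (h : (fun b => b.image e) '' B = B') : pointBlockGraph B ≃g pointBlockGraph B' where
  toEquiv := vertexMap e h
  map_rel_iff' {u v} := by
    simp only [pointBlockGraph, SimpleGraph.fromRel_adj, rel_vertexMap, ne_eq, EmbeddingLike.apply_eq_iff_eq]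

theorem pbIso_none (e : α ≃ β) (h : (fun b => b.image e) '' B = B') : pbIso e h none = none := rfl

theorem pbIso_pt (e : α ≃ β) (h : (fun b => b.image e) '' B = B') (a : α) :
    pbIso e h (some (Sum.inl a)) = some (Sum.inl (e a)) := rfl

/-- Conjugation between automorphism groups. -/
def autCongr {V W : Type*} {G : SimpleGraph V} {G' : SimpleGraph W} (f : G ≃g G') : (G ≃g G) ≃* (G' ≃g G') where
  toFun g := (f.symm.trans g).trans f
  invFun g := (f.trans g).trans f.symm
  left_inv g := RelIso.ext fun x => by simp
  right_inv g := RelIso.ext fun x => by simp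
  map_mul' g g' := RelIso.ext fun x => by simp [RelIso.mul_apply]

omit [DecidableEq β] in
theorem smul_eq_image [DecidableEq α] (σ : Equiv.Perm α) :
    σ • B = (fun b : Finset α => b.image σ) '' B := rfl

theorem adj_none_iff {α : Type*} {B : Set (Finset α)} (v : Option (α ⊕ B)) :
    (pointBlockGraph B).Adj none v ↔ ∃ a, v = some (Sum.inl a) := by
  rcases v with _ | a | b <;> simp [pointBlockGraph, SimpleGraph.fromRel_adj, pointBlockRel]

theorem adj_pt_block {α : Type*} {B : Set (Finset α)} (a : α) (b : B) :
    (pointBlockGraph B).Adj (some (Sum.inl a)) (some (Sum.inr b)) ↔ a ∈ (b : Finset α) := by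
  simp [pointBlockGraph, SimpleGraph.fromRel_adj, pointBlockRel]

theorem card_fix_none [DecidableEq α] [Fintype α] :
    Nat.card {g : pointBlockGraph B ≃g pointBlockGraph B // g none = none} = Nat.card (setSystemAut B) := by
  classical
  symm
  refine Nat.card_eq_of_bijective (fun σ => ⟨pbIso (σ : Equiv.Perm α)
    ((smul_eq_image (σ : Equiv.Perm α)).symm.trans σ.2), rfl⟩) ⟨?_, ?_⟩
  · intro σ τ h
    refine Subtype.ext (Equiv.ext fun a => ?_)
    have := congrArg (fun g => (g : pointBlockGraph B ≃g pointBlockGraph B) (some (Sum.inl a))) (congrArg Subtype.val h)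
    simpa [pbIso_pt] using this
  · rintro ⟨g, hg⟩
    have hp : ∀ a, ∃ a', g (some (Sum.inl a)) = some (Sum.inl a') := fun a => by
      rw [← adj_none_iff]
      nth_rewrite 1 [← hg]
      exact g.map_adj_iff.2 ((adj_none_iff _).2 ⟨a, rfl⟩)
    choose σ hσ using hp
    have hinj : Function.Injective σ := fun a a' h => by
      have := g.injective ((hσ a).trans ((congrArg (fun t => some (Sum.inl t)) h).trans (hσ a').symm))
      simpa using this
    have hbij : Function.Bijective σ := hinj.bijective_of_finite
    let s : Equiv.Perm α := Equiv.ofBijective σ hbij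
    have hb : ∀ b : B, ∃ c : B, g (some (Sum.inr b)) = some (Sum.inr c) ∧ (c : Finset α) = (b : Finset α).image s := by
      intro b
      rcases hc : g (some (Sum.inr b)) with _ | a' | c
      · exact absurd (g.injective (hc.trans hg.symm)) (by simp)
      · obtain ⟨a, rfl⟩ := hbij.2 a'
        exact absurd (g.injective (hc.trans (hσ a).symm)) (by simp)
      · refine ⟨c, rfl, Finset.ext fun a' => ?_⟩
        obtain ⟨a, rfl⟩ := hbij.2 a'
        rw [show σ a = s a from rfl, s.injective.mem_finset_image, ← adj_pt_block a b, ← g.map_adj_iff, hσ, hc,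
          adj_pt_block]
        rfl
    have hset : (fun b : Finset α => b.image s) '' B = B := by
      refine Set.Subset.antisymm ?_ fun d hd => ?_
      · rintro _ ⟨b, hbB, rfl⟩
        obtain ⟨c, -, hc⟩ := hb ⟨b, hbB⟩
        show b.image s ∈ B
        rw [show b.image s = (c : Finset α) from hc.symm]
        exact c.2
      · rcases hv : g.symm (some (Sum.inr ⟨d, hd⟩)) with _ | a | b
        · have := congrArg g hv; rw [RelIso.apply_symm_apply, hg] at this; simp at this
        · have := congrArg g hv; rw [RelIso.apply_symm_apply, hσ] at this; simp at this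
        · have := congrArg g hv
          rw [RelIso.apply_symm_apply] at this
          obtain ⟨c, hc, hc'⟩ := hb b
          rw [hc, Option.some.injEq, Sum.inr.injEq] at this
          exact ⟨b, b.2, hc'.symm.trans (congrArg Subtype.val this.symm)⟩
    refine ⟨⟨s, (smul_eq_image s).trans hset⟩, Subtype.ext (RelIso.ext ?_)⟩
    rintro (_ | a | b)
    · exact hg.symm
    · exact (hσ a).symm
    · obtain ⟨c, hc, hc'⟩ := hb b
      rw [hc]
      exact congrArg (fun t => some (Sum.inr t)) (Subtype.ext hc'.symm)

end Cfsg.Agent.Lib.Steiner
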