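import Cfsg.Agent.Lib.Steiner.Unique

/-! # S(3,6,22) inside the binary code of length 24 -/

set_option autoImplicit false
set_option maxRecDepth 100000

namespace Cfsg.Agent.Lib.Steiner

open Finset Cfsg Cfsg.Agent.Lib.Golay
open scoped Pointwise

variable {α : Type*} [Fintype α] [DecidableEq α] {B : Set (Finset α)}

/-- A set with two points adjoined. -/
def up2 {α : Type*} (b : Finset α) : Finset (Option (Option α)) := up (up b)

/-- The points other than the two adjoined. -/
def core {α : Type*} (v : Finset (Option (Option α))) : Finset α := eraseNone (eraseNone v)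

omit [Fintype α] in
theorem card_inter_up2 (v : Finset (Option (Option α))) (b : Finset α) :
    (v ∩ up2 b).card =
      (core v ∩ b).card + (if some none ∈ v then 1 else 0) + (if none ∈ v then 1 else 0) := by
  rw [up2, card_option_inter, card_option_inter]
  simp only [Finset.mem_eraseNone, core]

omit [Fintype α] in
theorem card_core (v : Finset (Option (Option α))) :
    v.card = (core v).card + (if some none ∈ v then 1 else 0) + (if none ∈ v then 1 else 0) := by
  rw [card_eraseNone' v, card_eraseNone' (eraseNone v)]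
  simp only [Finset.mem_eraseNone, core]

omit [Fintype α] [DecidableEq α] in
theorem mem_up2_none {b : Finset α} : none ∈ up2 b ∧ some none ∈ up2 b :=
  ⟨mem_up_none, mem_up_some.2 mem_up_none⟩

omit [Fintype α] [DecidableEq α] in
theorem core_up2 (b : Finset α) : core (up2 b) = b := by
  rw [core, up2, up, up, Finset.eraseNone_insertNone, Finset.eraseNone_insertNone]

theorem even22 (hα : Fintype.card α = 22) (hB : IsSteinerSystem 3 6 B) {b c : Finset α}
    (hb : b ∈ B) (hc : c ∈ B) : 2 ∣ (up2 b ∩ up2 c).card := by
  rw [card_inter_up2, core_up2, if_pos mem_up2_none.1, if_pos mem_up2_none.2]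
  rcases eq_or_ne b c with rfl | hbc
  · rw [inter_self, hB.1 b hb]; decide
  · rcases inter22 hα hB hb hc hbc with h | h <;> omega

/-- The detection property of the lifted blocks and one further word. -/
theorem detect_up22 (hα : Fintype.card α = 22) (hB : IsSteinerSystem 3 6 B)
    {u : Finset (Option (Option α))} (hu0 : none ∈ u) (hu1 : some none ∉ u)
    (hu : ∀ b ∈ B, 2 ∣ (u ∩ up2 b).card) (v : Finset (Option (Option α))) (h0 : v.Nonempty)
    (h7 : v.card ≤ 7) : ∃ g ∈ insert u (up2 '' B), ¬ 2 ∣ (v ∩ g).card := by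
  by_contra! hall
  have hB' : ∀ b ∈ B, 2 ∣ (v ∩ up2 b).card := fun b hb => hall _ (Or.inr ⟨b, hb, rfl⟩)
  have hv := card_core v
  by_cases hn : none ∈ v <;> by_cases hm : some none ∈ v
  · rw [if_pos hn, if_pos hm] at hv
    have hev : ∀ c ∈ B, 2 ∣ (core v ∩ c).card := by
      intro c hc
      have := hB' c hc
      rw [card_inter_up2, if_pos hn, if_pos hm] at this
      omega
    rcases (core v).eq_empty_or_nonempty with he | hne
    · have h := hall u (Or.inl rfl)
      have hvu : v ∩ u = {none} := by
        ext x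
        simp only [Finset.mem_inter, Finset.mem_singleton]
        constructor
        · rintro ⟨hxv, hxu⟩
          rcases x with _ | _ | a
          · rfl
          · exact absurd hxu hu1
          · have : a ∈ core v := by simp [core, hxv]
            rw [he] at this
            exact absurd this (Finset.notMem_empty a)
        · rintro rfl; exact ⟨hn, hu0⟩
      rw [hvu, Finset.card_singleton] at h
      omega
    · have := hB.1 _ (Code24.detect22_even hα hB hne (by omega) hev)
      omega
  · rw [if_pos hn, if_neg hm] at hv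
    have := Code24.detect22_odd hα hB (V := core v) fun c hc => by
      have := hB' c hc
      rw [card_inter_up2, if_pos hn, if_neg hm] at this
      omega
    omega
  · rw [if_neg hn, if_pos hm] at hv
    have := Code24.detect22_odd hα hB (V := core v) fun c hc => by
      have := hB' c hc
      rw [card_inter_up2, if_neg hn, if_pos hm] at this
      omega
    omega
  · rw [if_neg hn, if_neg hm] at hv
    have hne : (core v).Nonempty := Finset.card_pos.1 (by have := h0.card_pos; omega)
    have hcore := Code24.detect22_even hα hB hne (by omega) fun c hc => by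
      have := hB' c hc
      rw [card_inter_up2, if_neg hn, if_neg hm] at this
      omega
    have h1 := hu _ hcore
    have h2 : v = (core v).image fun a => some (some a) := by
      ext x
      rcases x with _ | _ | a
      · simp [hn]
      · simp [hm]
      · simp [core]
    have h3 : v ∩ u = (core v ∩ core u).image fun a => some (some a) := by
      ext x
      rcases x with _ | _ | a
      · simp [hn]
      · simp [hm]
      · simp [core]
    have h4 := hall u (Or.inl rfl)
    rw [h3, Finset.card_image_of_injective _ fun a b e =>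
      Option.some_injective _ (Option.some_injective _ e)] at h4
    rw [card_inter_up2, if_pos hu0, if_neg hu1, Finset.inter_comm] at h1
    omega

/-- Some set meets every block oddly. -/
theorem exists_odd22 (hα : Fintype.card α = 22) (hB : IsSteinerSystem 3 6 B) :
    ∃ V : Finset α, ∀ b ∈ B, ¬ 2 ∣ (V ∩ b).card := by
  let e0 : Option (Option α) ≃ Fin 24 :=
    Fintype.equivFinOfCardEq (by rw [Fintype.card_option, Fintype.card_option, hα])
  set G : Set (Finset (Fin 24)) := (fun b => (up2 b).image e0) '' B with hG
  have hcard : ∀ b : Finset α, ((up2 b).image e0).card = b.card + 2 := fun b => by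
    rw [Finset.card_image_of_injective _ e0.injective, up2, card_up, card_up]
  have heven : ∀ g ∈ G, ∀ g' ∈ G, 2 ∣ (g ∩ g').card := by
    rintro _ ⟨b, hb, rfl⟩ _ ⟨c, hc, rfl⟩
    rw [← Finset.image_inter _ _ e0.injective, Finset.card_image_of_injective _ e0.injective]
    exact even22 hα hB hb hc
  have h4 : ∀ g ∈ G, 4 ∣ g.card := by
    rintro _ ⟨b, hb, rfl⟩
    rw [hcard, hB.1 b hb]; decide
  have hnot : Code24.toW ((up2 (∅ : Finset α)).image e0) ∉ Code24.spanCode G := by
    intro h
    have := Code24.span_four_dvd h4 heven h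
    rw [← Code24.card_supp, Code24.supp_toW, hcard, Finset.card_empty] at this
    omega
  rw [← Code24.perp_perp (Code24.spanCode G), Code24.mem_perp] at hnot
  push Not at hnot
  obtain ⟨y, hy, hy1⟩ := hnot
  set U : Finset (Option (Option α)) := (Code24.supp y).image e0.symm with hU
  have hUi : ∀ s : Finset α,
      (Code24.supp y ∩ (up2 s).image e0).card = (U ∩ up2 s).card := by
    intro s
    rw [← Finset.card_image_of_injective _ e0.symm.injective,
      Finset.image_inter _ _ e0.symm.injective, Finset.image_image, e0.symm_comp_self,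
      Finset.image_id, hU]
  have hpair : ¬ 2 ∣ (U ∩ up2 (∅ : Finset α)).card := by
    rw [← hUi]
    intro h
    refine hy1 (Code24.orth_iff.2 ?_)
    rwa [Code24.supp_toW]
  refine ⟨core U, fun b hb => ?_⟩
  have h := Code24.orth_iff.1 (Code24.mem_perp.1 hy _ (Submodule.subset_span ⟨_, ⟨b, hb, rfl⟩, rfl⟩))
  rw [Code24.supp_toW, Finset.inter_comm, hUi, card_inter_up2] at h
  rw [card_inter_up2, Finset.inter_empty, Finset.card_empty] at hpair
  omega

/-! ### The model -/

/-- The two distinguished points. -/
def pr : Finset GolayPt := {none, some 0}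

/-- The other 22 points. -/
abbrev Pt22 : Type := {p : GolayPt // p ∉ pr}

theorem card_Pt22 : Fintype.card Pt22 = 22 := by decide +kernel

theorem notMem_pr {p : GolayPt} : p ∉ pr ↔ p ≠ none ∧ p ≠ some 0 := by simp [pr]

/-- The 24 points as the 22 and two further ones. -/
def joinPt : Option (Option Pt22) → GolayPt
  | none => none
  | some none => some 0
  | some (some t) => t.1

theorem joinPt_bij : Function.Bijective joinPt := by
  rw [Fintype.bijective_iff_injective_and_card]
  refine ⟨?_, by rw [Fintype.card_option, Fintype.card_option, card_Pt22]; rfl⟩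
  rintro (_ | _ | ⟨a, ha⟩) (_ | _ | ⟨b, hb⟩) h <;> simp only [joinPt] at h
  any_goals rfl
  all_goals first
    | exact absurd h (by decide)
    | exact absurd h.symm (notMem_pr.1 hb).1
    | exact absurd h.symm (notMem_pr.1 hb).2
    | exact absurd h (notMem_pr.1 ha).1
    | exact absurd h (notMem_pr.1 ha).2
    | (subst h; rfl)

/-- `joinPt` as an equivalence. -/
noncomputable def joinEquiv : Option (Option Pt22) ≃ GolayPt := Equiv.ofBijective joinPt joinPt_bij

/-- The lift of a set of the 22 points. -/
def lift (b : Finset Pt22) : Finset GolayPt := pr ∪ b.map (Function.Embedding.subtype _)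

theorem lift_eq (b : Finset Pt22) : lift b = (up2 b).image joinEquiv := by
  ext p
  obtain ⟨x, rfl⟩ := joinEquiv.surjective p
  rw [joinEquiv.injective.mem_finset_image]
  rcases x with _ | _ | t
  · exact iff_of_true (Finset.mem_union_left _ (by decide)) mem_up2_none.1
  · exact iff_of_true (Finset.mem_union_left _ (by decide)) mem_up2_none.2
  · rw [up2, mem_up_some, mem_up_some, lift, Finset.mem_union, Finset.mem_map]
    constructor
    · rintro (h | ⟨s, hs, he⟩)
      · exact absurd h t.2
      · rwa [← Subtype.ext he]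
    · exact fun h => Or.inr ⟨t, h, rfl⟩

theorem lift_injective : Function.Injective lift := fun b c h => by
  rw [lift_eq, lift_eq] at h
  exact Finset.insertNone.injective (Finset.insertNone.injective
    (Finset.image_injective joinEquiv.injective h))

/-- The blocks of the octads through the two points. -/
def blocks22 : Set (Finset Pt22) := {b | lift b ∈ octads}

theorem lift_card (b : Finset Pt22) : (lift b).card = b.card + 2 := by
  rw [lift_eq, Finset.card_image_of_injective _ joinEquiv.injective, up2, card_up, card_up]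

theorem blocks22_card {b : Finset Pt22} (hb : b ∈ blocks22) : b.card = 6 := by
  have := octads_card hb; rw [lift_card] at this; omega

theorem blocks22_inter {b c : Finset Pt22} (hb : b ∈ blocks22) (hc : c ∈ blocks22)
    (h : 3 ≤ (b ∩ c).card) : b = c := by
  refine lift_injective (octad_eq_of_five hb hc ?_)
  rw [lift_eq, lift_eq, ← Finset.image_inter _ _ joinEquiv.injective,
    Finset.card_image_of_injective _ joinEquiv.injective, card_inter_up2, core_up2,
    if_pos mem_up2_none.1, if_pos mem_up2_none.2]
  omega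

theorem blocks22_steiner : IsSteinerSystem 3 6 blocks22 := by
  refine ⟨fun b hb => blocks22_card hb, fun s hs => ?_⟩
  obtain ⟨o, ⟨ho, hso⟩, huniq⟩ := octads_steiner.2 (lift s) (by rw [lift_card, hs])
  have hl : lift (o.subtype (· ∉ pr)) = o := by
    ext p
    rw [lift, Finset.mem_union, Finset.subtype_map, Finset.mem_filter]
    exact ⟨fun h => h.elim (fun h => hso (Finset.mem_union_left _ h)) And.left,
      fun h => (em (p ∈ pr)).imp id fun hn => ⟨h, hn⟩⟩
  refine ⟨o.subtype (· ∉ pr), ⟨show lift _ ∈ octads by rw [hl]; exact ho, fun a ha => ?_⟩,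
    fun b hb => ?_⟩
  · rw [Finset.mem_subtype]
    exact hso (Finset.mem_union_right _ (Finset.mem_map_of_mem _ ha))
  · refine lift_injective ?_
    rw [hl]
    exact huniq _ ⟨hb.1, Finset.union_subset_union_right (Finset.map_subset_map.2 hb.2)⟩

/-- A system embeds as the blocks of the octads through two points. -/
theorem iso_blocks22 (hα : Fintype.card α = 22) (hB : IsSteinerSystem 3 6 B) :
    SetSystemIso B blocks22 := by
  obtain ⟨V, hV⟩ := exists_odd22 hα hB
  have hV' := Code24.detect22_odd hα hB hV
  set u : Finset (Option (Option α)) := up (V.map Function.Embedding.some) with hu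
  have hu0 : none ∈ u := mem_up_none
  have hu1 : some none ∉ u := by rw [hu, mem_up_some]; simp
  have hcore : core u = V := by rw [core, hu, up, Finset.eraseNone_insertNone, Finset.eraseNone_map_some]
  have hub : ∀ b ∈ B, 2 ∣ (u ∩ up2 b).card := by
    intro b hb
    rw [card_inter_up2, if_pos hu0, if_neg hu1, hcore]
    have := hV b hb; omega
  have huu : 2 ∣ (u ∩ u).card := by
    rw [inter_self, card_core, if_pos hu0, if_neg hu1, hcore]
    omega
  have heven : ∀ g ∈ insert u (up2 '' B), ∀ g' ∈ insert u (up2 '' B), 2 ∣ (g ∩ g').card := by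
    rintro _ (rfl | ⟨b, hb, rfl⟩) _ (rfl | ⟨c, hc, rfl⟩)
    · exact huu
    · exact hub c hc
    · rw [Finset.inter_comm]; exact hub b hb
    · exact even22 hα hB hb hc
  obtain ⟨f0, hf0⟩ := exists_equiv_code (γ := Option (Option α))
    (by rw [Fintype.card_option, Fintype.card_option, hα]) heven (detect_up22 hα hB hu0 hu1 hub)
  obtain ⟨σ, hσ, h1, h2⟩ := M24_trans_pairs (p := f0 none) (q := f0 (some none)) (p' := none)
    (q' := some 0) (fun h => by simpa using f0.injective h) (by simp)
  set f : Option (Option α) ≃ Option (Option Pt22) := (f0.trans σ).trans joinEquiv.symm with hf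
  have hfn : f none = none := joinEquiv.symm_apply_eq.2 h1
  have hfs : f (some none) = some none := joinEquiv.symm_apply_eq.2 h2
  set f1 := Equiv.removeNone f with hf1
  have hf1n : f1 none = none := Option.some_injective _ (by
    rw [hf1, Equiv.removeNone_some f ⟨none, hfs⟩, hfs])
  refine ⟨Equiv.removeNone f1, image_eq_of_le hB _ (fun b hb => ?_) (by norm_num)
    (fun b hb => blocks22_card hb) fun b hb c hc => blocks22_inter hb hc⟩
  show lift _ ∈ octads
  rw [lift_eq, up2, ← up_image f1 hf1n, ← up_image f hfn, Finset.image_image, hf,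
    show ⇑joinEquiv ∘ ⇑((f0.trans σ).trans joinEquiv.symm) = ⇑σ ∘ ⇑f0 by
      funext x; simp]
  refine ⟨?_, ?_⟩
  · rw [← Finset.image_image]
    exact mem_aut_image hσ (hf0 _ (Or.inr ⟨b, hb, rfl⟩))
  · rw [Finset.card_image_of_injective _ (σ.injective.comp f0.injective), card_up, card_up,
      hB.1 b hb]

/-! ### Its automorphisms -/

theorem mem_pr_iff {g : Equiv.Perm GolayPt} (hg : g ∈ stSet pr) (p : GolayPt) :
    g p ∈ pr ↔ p ∈ pr := by
  have := MulAction.mem_stabilizer_iff.1 hg.2
  conv_lhs => rw [← this]
  exact Finset.smul_mem_smul_finset_iff g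

theorem notMem_pr_iff {g : Equiv.Perm GolayPt} (hg : g ∈ stSet pr) (p : GolayPt) :
    g p ∉ pr ↔ p ∉ pr := not_congr (mem_pr_iff hg p)

/-- Restriction to the 22 points. -/
def res22 : stSet pr →* Equiv.Perm Pt22 where
  toFun g := g.1.subtypePerm (notMem_pr_iff g.2)
  map_one' := Equiv.ext fun _ => rfl
  map_mul' _ _ := Equiv.ext fun _ => rfl

theorem lift_res (g : Equiv.Perm GolayPt) (hg : g • pr = pr) (σ : Equiv.Perm Pt22)
    (h : ∀ t : Pt22, g t.1 = (σ t).1) (b : Finset Pt22) : g • lift b = lift (b.image σ) := by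
  rw [lift, Finset.smul_finset_union, hg, lift]
  congr 1
  ext p
  rw [Finset.mem_smul_finset]
  simp only [Finset.mem_map, Finset.mem_image, Function.Embedding.coe_subtype]
  constructor
  · rintro ⟨_, ⟨t, ht, rfl⟩, rfl⟩; exact ⟨σ t, ⟨t, ht, rfl⟩, (h t).symm⟩
  · rintro ⟨_, ⟨t, ht, rfl⟩, rfl⟩; exact ⟨t.1, ⟨t, ht, rfl⟩, h t⟩

theorem res22_mem (g : stSet pr) : res22 g ∈ setSystemAut blocks22 := by
  refine mem_aut_of_le fun b hb => ?_
  show lift _ ∈ octads
  rw [← lift_res g.1 g.2.2 (res22 g) (fun t => rfl)]
  exact smul_mem_octads g.2.1 hb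

theorem exists_octad_split : ∃ u ∈ octads, none ∈ u ∧ (some 0 : GolayPt) ∉ u := by
  obtain ⟨o, ho⟩ : ∃ o, o ∈ octads :=
    Set.nonempty_of_ncard_ne_zero (by rw [octads_ncard]; decide)
  obtain ⟨p, hp⟩ := Finset.card_pos.1 (by rw [octads_card ho]; norm_num : 0 < o.card)
  obtain ⟨q, hq⟩ : ∃ q, q ∉ o := by
    by_contra! h
    have := octads_card ho
    rw [Finset.eq_univ_iff_forall.2 h] at this
    simp at this
  obtain ⟨σ, hσ, h1, h2⟩ := M24_trans_pairs (p := p) (q := q) (p' := none) (q' := some 0)
    (fun h => hq (h ▸ hp)) (by simp)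
  refine ⟨σ • o, smul_mem_octads hσ ho, ?_, ?_⟩
  · rw [← h1]; exact Finset.smul_mem_smul_finset hp
  · rw [← h2]; exact fun h => hq ((Finset.smul_mem_smul_finset_iff σ).1 h)

theorem res22_injective : Function.Injective res22 := by
  refine (injective_iff_map_eq_one res22).2 fun g hg => ?_
  have hfix : ∀ p, p ∉ pr → g.1 p = p := fun p hp =>
    (congrArg Subtype.val (DFunLike.congr_fun hg ⟨p, hp⟩) :)
  obtain ⟨u, hu, h0, h1⟩ := exists_octad_split
  have h7 : g.1 • u = u := smul_eq_of_five g.2.1 hu (s := univ \ pr)
    (fun x hx => hfix x (Finset.mem_sdiff.1 hx).2) (by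
      have h := Finset.card_sdiff_add_card_inter u pr
      have h' : (u ∩ pr).card ≤ pr.card := Finset.card_le_card Finset.inter_subset_right
      have h'' : pr.card = 2 := by decide
      rw [octads_card hu] at h
      have he : u ∩ (univ \ pr) = u \ pr := by ext x; simp
      rw [he]; omega)
  have hn : g.1 none = none := by
    have hmem : g.1 none ∈ pr := (mem_pr_iff g.2 none).2 (by decide)
    have : g.1 none ∈ u := h7 ▸ Finset.smul_mem_smul_finset h0
    rcases Finset.mem_insert.1 hmem with h | h
    · exact h
    · rw [Finset.mem_singleton.1 h] at this; exact absurd this h1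
  refine Subtype.ext (Equiv.ext fun p => ?_)
  show g.1 p = p
  by_cases hp : p ∈ pr
  · rcases Finset.mem_insert.1 hp with rfl | h
    · exact hn
    · rw [Finset.mem_singleton.1 h]
      have hmem : g.1 (some 0) ∈ pr := (mem_pr_iff g.2 (some 0)).2 (by decide)
      rcases Finset.mem_insert.1 hmem with h' | h'
      · exact absurd (g.1.injective (h'.trans hn.symm)) (by simp)
      · exact Finset.mem_singleton.1 h'
  · exact hfix p hp

/-- The detection property of the octad lifts and a splitting octad. -/
theorem detect_lifts {u : Finset GolayPt} (hu : u ∈ octads) (h0 : none ∈ u)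
    (h1 : (some 0 : GolayPt) ∉ u) (v : Finset GolayPt) (hv : v.Nonempty) (h7 : v.card ≤ 7) :
    ∃ g ∈ insert u (lift '' blocks22), ¬ 2 ∣ (v ∩ g).card := by
  have hinj := joinEquiv.symm.injective
  have hcard : ∀ s t : Finset GolayPt,
      (s.image joinEquiv.symm ∩ t.image joinEquiv.symm).card = (s ∩ t).card := fun s t => by
    rw [← Finset.image_inter _ _ hinj, Finset.card_image_of_injective _ hinj]
  have hlift : ∀ b, up2 b = (lift b).image joinEquiv.symm := fun b => by
    rw [lift_eq, Finset.image_image, Equiv.symm_comp_self, Finset.image_id]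
  obtain ⟨g, hg, hodd⟩ := detect_up22 card_Pt22 blocks22_steiner
    (u := u.image joinEquiv.symm)
    (Finset.mem_image.2 ⟨none, h0, joinEquiv.symm_apply_eq.2 rfl⟩)
    (fun h => by
      obtain ⟨x, hx, he⟩ := Finset.mem_image.1 h
      rw [joinEquiv.symm_apply_eq] at he
      exact h1 (by rw [he] at hx; exact hx))
    (fun b hb => by rw [hlift, hcard]; exact even_word_inter hu.1 hb.1)
    (v.image joinEquiv.symm) (hv.image _) (by rwa [Finset.card_image_of_injective _ hinj])
  rcases hg with rfl | ⟨b, hb, rfl⟩
  · rw [hcard] at hodd; exact ⟨u, Or.inl rfl, hodd⟩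
  · rw [hlift, hcard] at hodd; exact ⟨_, Or.inr ⟨b, hb, rfl⟩, hodd⟩

theorem res22_surjective {σ : Equiv.Perm Pt22} (hσ : σ ∈ setSystemAut blocks22) :
    ∃ g : stSet pr, res22 g = σ := by
  classical
  obtain ⟨u, hu, h0, h1⟩ := exists_octad_split
  set τ : Equiv.Perm GolayPt := Equiv.Perm.ofSubtype σ with hτ
  have hfix : ∀ p ∈ pr, τ p = p := fun p hp =>
    Equiv.Perm.ofSubtype_apply_of_not_mem σ (not_not.2 hp)
  have hout : ∀ t : Pt22, τ t.1 = (σ t).1 := fun t => Equiv.Perm.ofSubtype_apply_coe σ t
  have hpr : ∀ s : Equiv.Perm GolayPt, (∀ p ∈ pr, s p ∈ pr) → s • pr = pr := fun s hs =>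
    Finset.eq_of_subset_of_card_le (fun x hx => by
      obtain ⟨y, hy, rfl⟩ := Finset.mem_smul_finset.1 hx
      exact hs y hy) (by rw [Finset.card_smul_finset])
  have hτpr : τ • pr = pr := hpr τ fun p hp => by rw [hfix p hp]; exact hp
  set s : Equiv.Perm GolayPt := Equiv.swap none (some 0) with hs
  have hspr : s • pr = pr := hpr s (by decide)
  have hsout : ∀ t : Pt22, s t.1 = t.1 := fun t =>
    Equiv.swap_apply_of_ne_of_ne (notMem_pr.1 t.2).1 (notMem_pr.1 t.2).2
  have hslift : ∀ b, s • lift b = lift b := fun b => by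
    rw [lift_res s hspr 1 (fun t => hsout t) b]
    congr 1
    exact Finset.image_id
  have hτlift : ∀ b, τ • lift b = lift (b.image σ) := lift_res τ hτpr σ hout
  have hG : ∀ g ∈ insert u (lift '' blocks22), g ∈ codeSets := by
    rintro _ (rfl | ⟨b, hb, rfl⟩)
    · exact hu.1
    · exact hb.1
  -- the image of the splitting octad meets every lift evenly
  have hx : ∀ b ∈ blocks22, 2 ∣ ((τ • u) ∩ lift b).card := by
    intro b hb
    have hb' : b.image ⇑σ⁻¹ ∈ blocks22 := mem_aut_image (inv_mem hσ) hb
    have e : τ • (u ∩ lift (b.image ⇑σ⁻¹)) = (τ • u) ∩ lift b := by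
      rw [Finset.smul_finset_inter, hτlift, Finset.image_image]
      congr 2
      rw [← Equiv.Perm.coe_mul, mul_inv_cancel, Equiv.Perm.coe_one, Finset.image_id]
    rw [← e, Finset.card_smul_finset]
    exact even_word_inter hu.1 hb'.1
  have hnx : none ∈ τ • u :=
    Finset.mem_smul_finset.2 ⟨none, h0, hfix none (by decide)⟩
  have h0x : (some 0 : GolayPt) ∉ τ • u := by
    intro h
    obtain ⟨y, hy, he⟩ := Finset.mem_smul_finset.1 h
    rw [Equiv.Perm.smul_def] at he
    exact h1 (τ.injective (he.trans (hfix _ (by decide)).symm) ▸ hy)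
  suffices H : ∃ g : Equiv.Perm GolayPt, g • u ∈ codeSets ∧ g • pr = pr ∧
      ∀ t : Pt22, g t.1 = (σ t).1 by
    obtain ⟨g, hgu, hgpr, hgout⟩ := H
    have hg : g ∈ M24 := by
      refine mem_M24_of_gen hG (detect_lifts hu h0 h1) ?_
      rintro _ (rfl | ⟨b, hb, rfl⟩)
      · exact hgu
      · rw [lift_res g hgpr σ hgout]; exact (mem_aut_image hσ hb).1
    exact ⟨⟨g, hg, hgpr⟩, Equiv.ext fun t => Subtype.ext (hgout t)⟩
  by_cases hp : 2 ∣ ((τ • u) ∩ u).card
  · refine ⟨τ, mem_codeSets_of_even hG (detect_lifts hu h0 h1) ?_, hτpr, hout⟩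
    rintro _ (rfl | ⟨b, hb, rfl⟩)
    · exact hp
    · exact hx b hb
  · refine ⟨s * τ, mem_codeSets_of_even hG (detect_lifts hu h0 h1) ?_, by
      rw [mul_smul, hτpr, hspr], fun t => by
      rw [Equiv.Perm.mul_apply, hout, hsout]⟩
    rintro _ (he | ⟨b, hb, rfl⟩)
    · rw [he]
      have e : (s * τ) • u ∩ u = (τ • u ∩ u).erase none := by
        rw [mul_smul]
        ext p
        rw [Finset.mem_inter, Finset.mem_smul_finset, Finset.mem_erase, Finset.mem_inter]
        constructor
        · rintro ⟨⟨y, hy, rfl⟩, hpu⟩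
          rw [Equiv.Perm.smul_def] at hpu ⊢
          by_cases hy0 : y = none
          · subst hy0; rw [hs, Equiv.swap_apply_left] at hpu; exact absurd hpu h1
          · have : s y = y := Equiv.swap_apply_of_ne_of_ne hy0 fun e => h0x (e ▸ hy)
            rw [this] at hpu ⊢; exact ⟨hy0, hy, hpu⟩
        · rintro ⟨hp0, hy, hpu⟩
          exact ⟨⟨p, hy, Equiv.swap_apply_of_ne_of_ne hp0 fun e => h0x (e ▸ hy)⟩, hpu⟩
      rw [e, Finset.card_erase_of_mem (Finset.mem_inter.2 ⟨hnx, h0⟩)]
      omega
    · rw [mul_smul, ← hslift b, ← Finset.smul_finset_inter, Finset.card_smul_finset]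
      exact hx b hb

/-- The automorphisms of the blocks are the pair stabiliser. -/
theorem autEquiv22 : ∃ E : stSet pr ≃* setSystemAut blocks22,
    ∀ g (t : Pt22), (((E g : Equiv.Perm Pt22) t).1 : GolayPt) = (g : Equiv.Perm GolayPt) t.1 := by
  let φ : stSet pr →* setSystemAut blocks22 := res22.codRestrict _ res22_mem
  refine ⟨MulEquiv.ofBijective φ ⟨fun g g' h => res22_injective (congrArg Subtype.val h),
    fun σ => ?_⟩, fun g t => rfl⟩
  obtain ⟨g, hg⟩ := res22_surjective σ.2
  exact ⟨g, Subtype.ext hg⟩

theorem stSet_pr_card : Nat.card (stSet pr) = 887040 := by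
  have h := card_eq_orbit_mul M24 pr {s : Finset GolayPt | s.card = 2}
    (fun σ _ => by show (σ • pr).card = 2; rw [Finset.card_smul_finset]; decide)
    (fun s hs => M24_trans_sets (by decide) ((show pr.card = 2 by decide).trans hs.symm))
  have hset : {s : Finset GolayPt | s.card = 2} =
      ↑(Finset.powersetCard 2 (univ : Finset GolayPt)) := by
    ext s; simp [Finset.mem_powersetCard]
  rw [M24_card, hset, Set.ncard_coe_finset, Finset.card_powersetCard, Finset.card_univ,
    show Fintype.card GolayPt = 24 from rfl] at h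
  change 244823040 = Nat.choose 24 2 * Nat.card (stSet pr) at h
  rw [show Nat.choose 24 2 = 276 by decide] at h
  omega

theorem st2_le_stSet : st2 none (some 0) ≤ stSet pr := by
  rintro g ⟨⟨hg, h0⟩, h1⟩
  refine ⟨hg, ?_⟩
  show g • pr = pr
  rw [smul_perm_finset, pr, Finset.image_insert, Finset.image_singleton, show g none = none from h0,
    show g (some 0) = some 0 from h1]

end Cfsg.Agent.Lib.Steiner
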