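import Mathlib

/-!
The graph of a transitive group on 100 points with suborbits of lengths 22 and 77.
-/

set_option autoImplicit false

namespace Cfsg.Agent.Lib.Steiner

open Finset

variable {Ω : Type*} [Fintype Ω] [DecidableEq Ω] {G : Subgroup (Equiv.Perm Ω)}

theorem srg_of_suborbits [MulAction.IsPretransitive G Ω] (hΩ : Fintype.card Ω = 100) (a b c : Ω)
    (hb : (MulAction.orbit (MulAction.stabilizer G a) b).ncard = 22)
    (hc : (MulAction.orbit (MulAction.stabilizer G a) c).ncard = 77) :
    ∃ (Γ : SimpleGraph Ω) (_ : DecidableRel Γ.Adj), Γ.IsSRGWith 100 22 0 6 ∧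
      ∀ (g : ↥G) (x y : Ω), Γ.Adj (g • x) (g • y) ↔ Γ.Adj x y := by
  classical
  set S := MulAction.stabilizer G a
  set N := MulAction.orbit S b
  set F := MulAction.orbit S c
  have haorb : MulAction.orbit S a = {a} := by
    ext y
    exact ⟨fun ⟨g, hg⟩ => hg ▸ g.2, fun hy => by rw [Set.mem_singleton_iff.1 hy]; exact MulAction.mem_orbit_self a⟩
  have hNF : Disjoint N F := by
    rw [Set.disjoint_left]
    intro y h1 h2
    have : N = F := (MulAction.orbit_eq_iff.2 h1).symm.trans (MulAction.orbit_eq_iff.2 h2)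
    rw [this, hc] at hb
    omega
  have haN : a ∉ N := fun h => by
    rw [show N = {a} from (MulAction.orbit_eq_iff.2 h).symm.trans haorb, Set.ncard_singleton] at hb; omega
  have haF : a ∉ F := fun h => by
    rw [show F = {a} from (MulAction.orbit_eq_iff.2 h).symm.trans haorb, Set.ncard_singleton] at hc; omega
  have hpart : ∀ y, y ≠ a → y ∉ N → y ∈ F := by
    have h1 : insert a (N ∪ F) = Set.univ := by
      refine Set.eq_of_subset_of_ncard_le (Set.subset_univ _) ?_ (Set.toFinite _)
      rw [Set.ncard_univ, Nat.card_eq_fintype_card, hΩ, Set.ncard_insert_of_notMem (fun h => h.elim haN haF) (Set.toFinite _),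
        Set.ncard_union_eq hNF (Set.toFinite _) (Set.toFinite _), hb, hc]
    intro y hy hyN
    have := h1.ge (Set.mem_univ y)
    simp only [Set.mem_insert_iff, Set.mem_union] at this
    tauto
  have hmove : ∀ x : Ω, ∃ g : ↥G, g • a = x := fun x => MulAction.exists_smul_eq _ a x
  have hflip : ∃ g : ↥G, g • b = a ∧ g • a ∈ N := by
    obtain ⟨g, hg⟩ := MulAction.exists_smul_eq (↥G) b a
    refine ⟨g, hg, ?_⟩
    by_contra hN
    have hne : g • a ≠ a := fun e => haN (by
      have hab : a = b := MulAction.injective g (e.trans hg.symm)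
      show a ∈ N
      rw [hab]; exact MulAction.mem_orbit_self b)
    have hF := hpart _ hne hN
    let e : ↥(MulAction.stabilizer ↥S b) ≃ ↥(MulAction.stabilizer ↥S (g • a)) :=
      { toFun := fun h => ⟨⟨g * (h : ↥S) * g⁻¹, by
            show (g * ((h : ↥S) : ↥G) * g⁻¹) • a = a
            rw [mul_smul, mul_smul, ← hg, inv_smul_smul]
            exact congrArg (g • ·) h.2⟩, by
            show (g * ((h : ↥S) : ↥G) * g⁻¹) • g • a = g • a
            rw [mul_smul, mul_smul, inv_smul_smul]
            exact congrArg (g • ·) h.1.2⟩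
        invFun := fun h => ⟨⟨g⁻¹ * (h : ↥S) * g, by
            show (g⁻¹ * ((h : ↥S) : ↥G) * g) • a = a
            rw [mul_smul, mul_smul, show ((h : ↥S) : ↥G) • g • a = g • a from h.2, inv_smul_smul]⟩, by
            show (g⁻¹ * ((h : ↥S) : ↥G) * g) • b = b
            rw [mul_smul, mul_smul, hg, show ((h : ↥S) : ↥G) • a = a from h.1.2, ← hg, inv_smul_smul]⟩
        left_inv := fun h => Subtype.ext (Subtype.ext (by show g⁻¹ * (g * _ * g⁻¹) * g = _; group))
        right_inv := fun h => Subtype.ext (Subtype.ext (by show g * (g⁻¹ * _ * g) * g⁻¹ = _; group)) }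
    have h1 := Subgroup.card_mul_index (MulAction.stabilizer ↥S b)
    have h2 := Subgroup.card_mul_index (MulAction.stabilizer ↥S (g • a))
    rw [MulAction.index_stabilizer, hb] at h1
    rw [MulAction.index_stabilizer, show MulAction.orbit ↥S (g • a) = F from MulAction.orbit_eq_iff.2 hF, hc,
      ← Nat.card_congr e] at h2
    have hpos : 0 < Nat.card ↥S := Nat.card_pos
    omega
  obtain ⟨g0, hg0, hg0N⟩ := hflip
  let adj : Ω → Ω → Prop := fun x y => ∃ g : ↥G, g • a = x ∧ g • b = y
  have adjN : ∀ y, adj a y ↔ y ∈ N := fun y =>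
    ⟨fun ⟨g, h1, h2⟩ => ⟨⟨g, h1⟩, h2⟩, fun ⟨g, h2⟩ => ⟨g, g.2, h2⟩⟩
  have adjInv : ∀ (g : ↥G) x y, adj (g • x) (g • y) ↔ adj x y := fun g x y =>
    ⟨fun ⟨k, h1, h2⟩ => ⟨g⁻¹ * k, by rw [mul_smul, h1, inv_smul_smul], by rw [mul_smul, h2, inv_smul_smul]⟩,
      fun ⟨k, h1, h2⟩ => ⟨g * k, by rw [mul_smul, h1], by rw [mul_smul, h2]⟩⟩
  have adjSymm : ∀ x y, adj x y → adj y x := by
    rintro x y ⟨g, rfl, rfl⟩
    rw [adjInv, ← adjInv g0, hg0]
    exact (adjN _).2 hg0N
  let Γ : SimpleGraph Ω :=
    { Adj := adj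
      symm := ⟨adjSymm⟩
      loopless := ⟨fun x ⟨g, h1, h2⟩ => haN ((MulAction.injective g (h2.trans h1.symm)) ▸ MulAction.mem_orbit_self b)⟩ }
  refine ⟨Γ, inferInstance, ?_, adjInv⟩
  let cn : Ω → Ω → ℕ := fun x y => (univ.filter fun z => Γ.Adj x z ∧ Γ.Adj y z).card
  have cnInv : ∀ (g : ↥G) x y, cn (g • x) (g • y) = cn x y := fun g x y => by
    symm
    refine Finset.card_bij (fun z _ => g • z) (fun z hz => ?_) (fun _ _ _ _ e => MulAction.injective g e) fun z hz => ?_
    · simp only [mem_filter, mem_univ, true_and] at hz ⊢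
      exact ⟨(adjInv g _ _).2 hz.1, (adjInv g _ _).2 hz.2⟩
    · refine ⟨g⁻¹ • z, ?_, smul_inv_smul g z⟩
      simp only [mem_filter, mem_univ, true_and] at hz ⊢
      rw [← smul_inv_smul g z] at hz
      exact ⟨(adjInv g _ _).1 hz.1, (adjInv g _ _).1 hz.2⟩
  have hdeg : ∀ x, (univ.filter fun z => Γ.Adj x z).card = 22 := fun x => by
    obtain ⟨g, rfl⟩ := hmove x
    have h0 : (univ.filter fun z => Γ.Adj a z).card = 22 := by
      rw [← hb, ← Set.ncard_coe_finset]
      congr 1
      ext z
      simp only [coe_filter, mem_univ, true_and, Set.mem_setOf_eq]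
      exact adjN z
    rw [← h0]
    symm
    refine Finset.card_bij (fun z _ => g • z) (fun z hz => ?_) (fun _ _ _ _ e => MulAction.injective g e) fun z hz => ?_
    · simp only [mem_filter, mem_univ, true_and] at hz ⊢
      exact (adjInv g _ _).2 hz
    · refine ⟨g⁻¹ • z, ?_, smul_inv_smul g z⟩
      simp only [mem_filter, mem_univ, true_and] at hz ⊢
      rw [← smul_inv_smul g z] at hz
      exact (adjInv g _ _).1 hz
  have hlam : ∀ x y, Γ.Adj x y → cn x y = cn a b := fun x y ⟨g, h1, h2⟩ => by rw [← h1, ← h2, cnInv]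
  have hmu : ∀ x y, x ≠ y → ¬ Γ.Adj x y → cn x y = cn a c := fun x y hne hna => by
    obtain ⟨g, rfl⟩ := hmove x
    have h1 : g⁻¹ • y ≠ a := fun e => hne (by rw [← e, smul_inv_smul])
    obtain ⟨h, hh : (h : ↥G) • c = g⁻¹ • y⟩ := hpart _ h1 fun h2 => hna (by
      rw [← smul_inv_smul g y]
      exact (adjInv g _ _).2 ((adjN _).2 h2))
    rw [← smul_inv_smul g y, cnInv, ← hh]
    conv_lhs => rw [← (show (h : ↥G) • a = a from h.2)]
    rw [cnInv]
  have hlink : 22 * (21 - cn a b) = 77 * cn a c ∧ cn a b ≤ 21 := by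
    set Nf := univ.filter fun z => Γ.Adj a z
    set Ff := univ.filter fun z => z ≠ a ∧ ¬ Γ.Adj a z
    have hd := Finset.sum_card_bipartiteAbove_eq_sum_card_bipartiteBelow (s := Nf) (t := Ff) (fun y z => Γ.Adj y z)
    have e1 : ∀ y ∈ Nf, (Ff.bipartiteAbove (fun y z => Γ.Adj y z) y).card + (cn a b + 1) = 22 := fun y hy => by
      have hya : Γ.Adj a y := (mem_filter.1 hy).2
      have hc1 := hlam a y hya
      have e : (univ.filter fun z => Γ.Adj y z) =
          (Ff.bipartiteAbove (fun y z => Γ.Adj y z) y) ∪ insert a (univ.filter fun z => Γ.Adj a z ∧ Γ.Adj y z) := by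
        ext z
        simp only [Ff, bipartiteAbove, mem_filter, mem_univ, true_and, mem_union, mem_insert]
        refine ⟨fun h => by by_cases h1 : z = a <;> by_cases h2 : Γ.Adj a z <;> simp [h1, h2, h], ?_⟩
        rintro (⟨-, h⟩ | rfl | ⟨-, h⟩)
        exacts [h, hya.symm, h]
      have hd : Disjoint (Ff.bipartiteAbove (fun y z => Γ.Adj y z) y) (insert a (univ.filter fun z => Γ.Adj a z ∧ Γ.Adj y z)) := by
        rw [Finset.disjoint_left]
        intro z hz hz'
        simp only [Ff, bipartiteAbove, mem_filter, mem_univ, true_and, mem_insert] at hz hz'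
        rcases hz' with rfl | ⟨h, -⟩
        · exact hz.1.1 rfl
        · exact hz.1.2 h
      have := congrArg Finset.card e
      rw [hdeg, card_union_of_disjoint hd, card_insert_of_notMem (by simp)] at this
      have h2 : (univ.filter fun z => Γ.Adj a z ∧ Γ.Adj y z).card = cn a b := hc1
      omega
    have e2 : ∀ z ∈ Ff, (Nf.bipartiteBelow (fun y z => Γ.Adj y z) z).card = cn a c := fun z hz => by
      have hz' := (mem_filter.1 hz).2
      rw [← hmu a z (Ne.symm hz'.1) hz'.2]
      congr 1
      ext y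
      simp only [Nf, bipartiteBelow, mem_filter, mem_univ, true_and]
      exact and_congr_right fun _ => Γ.adj_comm _ _
    have hFf : Ff.card = 77 := by
      have e : Ff = univ \ insert a Nf := by
        ext z; simp [Ff, Nf]
      rw [e, card_sdiff, inter_univ, card_insert_of_notMem (by simp [Nf]), hdeg, card_univ, hΩ]
    obtain ⟨y0, hy0⟩ : Nf.Nonempty := card_pos.1 (by rw [hdeg]; norm_num)
    have h0 := e1 y0 hy0
    rw [Finset.sum_congr rfl e2, Finset.sum_congr rfl (g := fun _ => 21 - cn a b) fun y hy => by have := e1 y hy; omega,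
      Finset.sum_const, Finset.sum_const, hdeg, hFf, smul_eq_mul, smul_eq_mul] at hd
    exact ⟨hd, by omega⟩
  have htri : 3 ∣ 100 * 22 * cn a b := by
    let T := univ.filter fun t : Ω × Ω × Ω => Γ.Adj t.1 t.2.1 ∧ Γ.Adj t.1 t.2.2 ∧ Γ.Adj t.2.1 t.2.2
    have hT : T.card = 100 * 22 * cn a b := by
      have e : T.card = ∑ x : Ω, ∑ y ∈ univ.filter (fun y => Γ.Adj x y), cn x y := by
        simp only [T, cn, Finset.card_filter, Fintype.sum_prod_type, Finset.sum_filter]
        refine Finset.sum_congr rfl fun x _ => Finset.sum_congr rfl fun y _ => ?_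
        by_cases h : Γ.Adj x y <;> simp [h]
      rw [e, Finset.sum_congr rfl fun x _ => Finset.sum_congr rfl fun y hy => hlam x y (mem_filter.1 hy).2]
      simp only [Finset.sum_const, hdeg, smul_eq_mul, card_univ, hΩ]
      ring
    rw [← hT]
    let σ : Equiv.Perm ↥T :=
      { toFun := fun t => ⟨(t.1.2.1, t.1.2.2, t.1.1), by
          obtain ⟨h1, h2, h3⟩ := (mem_filter.1 t.2).2
          exact mem_filter.2 ⟨mem_univ _, h3, h1.symm, h2.symm⟩⟩
        invFun := fun t => ⟨(t.1.2.2, t.1.1, t.1.2.1), by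
          obtain ⟨h1, h2, h3⟩ := (mem_filter.1 t.2).2
          exact mem_filter.2 ⟨mem_univ _, h2.symm, h3.symm, h1⟩⟩
        left_inv := fun t => rfl
        right_inv := fun t => rfl }
    haveI : Fact (Nat.Prime 3) := ⟨by norm_num⟩
    have h0 := Equiv.Perm.card_fixedPoints_modEq (p := 3) (n := 1) (f := (σ : ↥T → ↥T)) (by
      funext t; rfl)
    have hfix : IsEmpty ↥(Function.fixedPoints (σ : ↥T → ↥T)) := ⟨fun ⟨t, ht⟩ => by
      obtain ⟨h1, -, -⟩ := (mem_filter.1 t.2).2
      have h2 : t.1.2.1 = t.1.1 := congrArg (fun s : ↥T => s.1.1) ht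
      exact h1.ne h2.symm⟩
    rw [Fintype.card_coe] at h0
    rw [Fintype.card_eq_zero] at h0
    exact Nat.modEq_zero_iff_dvd.1 h0
  have hcases : cn a b = 0 ∧ cn a c = 6 := by
    obtain ⟨h1, h2⟩ := hlink
    have h3 : cn a b ≠ 21 := by
      intro h21
      have hK : ∀ x y, Γ.Adj x y → insert x (univ.filter fun z => Γ.Adj x z) = insert y (univ.filter fun z => Γ.Adj y z) := by
        intro x y hxy
        have hsub : univ.filter (fun z => Γ.Adj x z ∧ Γ.Adj y z) ⊆ (univ.filter fun z => Γ.Adj x z).erase y := by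
          intro z hz
          simp only [mem_filter, mem_univ, true_and, mem_erase] at hz ⊢
          exact ⟨hz.2.ne', hz.1⟩
        have heq := Finset.eq_of_subset_of_card_le hsub (by
          rw [card_erase_of_mem (by simp [hxy]), hdeg, show (univ.filter fun z => Γ.Adj x z ∧ Γ.Adj y z).card = cn x y from rfl,
            hlam x y hxy, h21])
        refine Finset.eq_of_subset_of_card_le (fun z hz => ?_) (by
          rw [card_insert_of_notMem (by simp), card_insert_of_notMem (by simp), hdeg, hdeg])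
        simp only [mem_insert, mem_filter, mem_univ, true_and] at hz ⊢
        rcases hz with rfl | hz
        · exact Or.inr hxy.symm
        · by_cases hzy : z = y
          · exact Or.inl hzy
          · have : z ∈ (univ.filter fun z => Γ.Adj x z).erase y := by simp [hzy, hz]
            rw [← heq] at this
            exact Or.inr (mem_filter.1 this).2.2
      let K : Ω → Finset Ω := fun x => insert x (univ.filter fun z => Γ.Adj x z)
      have hfib := Finset.card_eq_sum_card_image K univ
      have e : ∀ k ∈ univ.image K, (univ.filter fun x => K x = k).card = 23 := by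
        intro k hk
        obtain ⟨x, -, rfl⟩ := mem_image.1 hk
        rw [show (univ.filter fun y => K y = K x) = K x by
          ext y
          simp only [mem_filter, mem_univ, true_and]
          refine ⟨fun e => e ▸ mem_insert_self _ _, fun hy => ?_⟩
          rcases mem_insert.1 hy with rfl | hy
          · rfl
          · exact (hK x y (mem_filter.1 hy).2).symm]
        rw [card_insert_of_notMem (by simp), hdeg]
      rw [Finset.sum_congr rfl e, Finset.sum_const, card_univ, hΩ, smul_eq_mul] at hfib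
      omega
    omega
  refine ⟨hΩ, fun x => ?_, fun x y h => ?_, fun x y hne h => ?_⟩
  · rw [← SimpleGraph.card_neighborFinset_eq_degree, ← hdeg x]
    congr 1; ext z; simp
  · rw [← Set.toFinset_card, ← hcases.1, ← hlam x y h]
    congr 1; ext z; simp [SimpleGraph.mem_commonNeighbors]
  · rw [← Set.toFinset_card, ← hcases.2, ← hmu x y hne h]
    congr 1; ext z; simp [SimpleGraph.mem_commonNeighbors]

end Cfsg.Agent.Lib.Steiner
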