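import Cfsg.Agent.Lib.Steiner.PointBlockIso
import Mathlib

/-!
A strongly regular graph with parameters (100, 22, 0, 6) is a point-block graph of an S(3, 6, 22).
-/

set_option autoImplicit false

namespace Cfsg.Agent.Lib.Steiner

open Cfsg Finset

variable {V : Type*} [Fintype V] [DecidableEq V] {G : SimpleGraph V} [DecidableRel G.Adj]
  (h : G.IsSRGWith 100 22 0 6) (v₀ : V)

include h

theorem srg_deg (v : V) : (univ.filter fun x => G.Adj v x).card = 22 := by
  rw [← h.regular v, ← SimpleGraph.card_neighborFinset_eq_degree]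
  congr 1; ext x; simp

theorem srg_common {v w : V} (hne : v ≠ w) :
    (univ.filter fun x => G.Adj v x ∧ G.Adj w x).card = if G.Adj v w then 0 else 6 := by
  have e : (univ.filter fun x => G.Adj v x ∧ G.Adj w x).card = Fintype.card ↑(G.commonNeighbors v w) := by
    rw [← Set.toFinset_card]; congr 1; ext z; simp [SimpleGraph.mem_commonNeighbors]
  rw [e]
  split_ifs with ha
  · exact h.of_adj v w ha
  · exact h.of_not_adj hne ha

theorem srg_triangle {a b c : V} (hab : G.Adj a b) (hac : G.Adj a c) (hbc : G.Adj b c) : False := by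
  have h0 := srg_common h hab.ne
  rw [if_pos hab, Finset.card_eq_zero, Finset.filter_eq_empty_iff] at h0
  exact h0 (Finset.mem_univ c) ⟨hac, hbc⟩

omit h

/-- The neighbours of the base vertex. -/
abbrev Near (G : SimpleGraph V) (v₀ : V) : Type _ := {p : V // G.Adj v₀ p}

/-- The vertices far from the base vertex. -/
def farSet (G : SimpleGraph V) [DecidableRel G.Adj] (v₀ : V) : Finset V := univ.filter fun w => w ≠ v₀ ∧ ¬ G.Adj v₀ w

/-- The neighbours of a vertex among those of the base vertex. -/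
def blk (G : SimpleGraph V) [DecidableRel G.Adj] (v₀ w : V) : Finset (Near G v₀) := univ.filter fun p => G.Adj w p.1

theorem mem_far {w : V} : w ∈ farSet G v₀ ↔ w ≠ v₀ ∧ ¬ G.Adj v₀ w := by simp [farSet]

theorem mem_blk {w : V} {p : Near G v₀} : p ∈ blk G v₀ w ↔ G.Adj w p.1 := by simp [blk]

include h

theorem card_near : Fintype.card (Near G v₀) = 22 := by
  rw [Fintype.card_subtype]; exact srg_deg h v₀

theorem card_blk {w : V} (hw : w ∈ farSet G v₀) : (blk G v₀ w).card = 6 := by
  obtain ⟨hne, hna⟩ := (mem_far v₀).1 hw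
  have e := srg_common h hne.symm
  rw [if_neg hna] at e
  rw [← e, ← Finset.card_map (Function.Embedding.subtype _)]
  congr 1
  ext x
  simp only [Finset.mem_map, mem_blk, Function.Embedding.subtype_apply, Finset.mem_filter, Finset.mem_univ, true_and]
  exact ⟨fun ⟨p, hp, e⟩ => e ▸ ⟨p.2, hp⟩, fun hx => ⟨⟨x, hx.1⟩, hx.2, rfl⟩⟩

theorem card_far : (farSet G v₀).card = 77 := by
  have e : farSet G v₀ = univ \ insert v₀ (univ.filter fun x => G.Adj v₀ x) := by
    ext x; simp [farSet]
  rw [e, Finset.card_sdiff, Finset.inter_univ, Finset.card_insert_of_notMem (by simp), srg_deg h, Finset.card_univ, h.card]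

theorem far_through (p : Near G v₀) : ((farSet G v₀).filter fun w => p ∈ blk G v₀ w).card = 21 := by
  have e : insert v₀ ((farSet G v₀).filter fun w => p ∈ blk G v₀ w) = univ.filter fun x => G.Adj p.1 x := by
    ext x
    simp only [Finset.mem_insert, Finset.mem_filter, mem_far, mem_blk, Finset.mem_univ, true_and]
    constructor
    · rintro (rfl | ⟨-, hx⟩)
      · exact p.2.symm
      · exact hx.symm
    · intro hx
      by_cases hv : x = v₀
      · exact Or.inl hv
      · exact Or.inr ⟨⟨hv, fun ha => srg_triangle h ha p.2 hx.symm⟩, hx.symm⟩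
  have := congrArg Finset.card e
  rw [Finset.card_insert_of_notMem (by simp [mem_far]), srg_deg h] at this
  omega

theorem far_through_two {p q : Near G v₀} (hpq : p ≠ q) :
    ((farSet G v₀).filter fun w => p ∈ blk G v₀ w ∧ q ∈ blk G v₀ w).card = 5 := by
  have e : insert v₀ ((farSet G v₀).filter fun w => p ∈ blk G v₀ w ∧ q ∈ blk G v₀ w) =
      univ.filter fun x => G.Adj p.1 x ∧ G.Adj q.1 x := by
    ext x
    simp only [Finset.mem_insert, Finset.mem_filter, mem_far, mem_blk, Finset.mem_univ, true_and]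
    constructor
    · rintro (rfl | ⟨-, h1, h2⟩)
      · exact ⟨p.2.symm, q.2.symm⟩
      · exact ⟨h1.symm, h2.symm⟩
    · rintro ⟨h1, h2⟩
      by_cases hv : x = v₀
      · exact Or.inl hv
      · exact Or.inr ⟨⟨hv, fun ha => srg_triangle h ha p.2 h1.symm⟩, h1.symm, h2.symm⟩
  have hna : ¬ G.Adj p.1 q.1 := fun ha => srg_triangle h p.2 q.2 ha
  have := congrArg Finset.card e
  rw [Finset.card_insert_of_notMem (by simp [mem_far]), srg_common h (fun e => hpq (Subtype.ext e)), if_neg hna] at this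
  omega

theorem blk_disjoint {w w' : V} (ha : G.Adj w w') : Disjoint (blk G v₀ w) (blk G v₀ w') := by
  rw [Finset.disjoint_left]
  intro p hp hp'
  rw [mem_blk] at hp hp'
  exact srg_triangle h ha hp hp'

theorem blk_inter {w w' : V} (hw : w ∈ farSet G v₀) (hw' : w' ∈ farSet G v₀) (hne : w ≠ w') (hna : ¬ G.Adj w w') :
    (blk G v₀ w ∩ blk G v₀ w').card = 2 := by
  set b := blk G v₀ w
  set S := (farSet G v₀).erase w
  set T := S.filter fun x => ¬ G.Adj w x
  have hk0 : ∀ x ∈ S, x ∉ T → (b ∩ blk G v₀ x).card = 0 := fun x hx hx' => by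
    rw [Finset.card_eq_zero, ← Finset.disjoint_iff_inter_eq_empty]
    refine blk_disjoint h v₀ ?_
    by_contra hn
    exact hx' (Finset.mem_filter.2 ⟨hx, hn⟩)
  have hT : T.card = 60 := by
    have e : (univ.filter fun x => G.Adj w x) = b.map (Function.Embedding.subtype _) ∪ S.filter fun x => G.Adj w x := by
      ext x
      simp only [b, S, Finset.mem_union, Finset.mem_map, mem_blk, Function.Embedding.subtype_apply, Finset.mem_filter,
        Finset.mem_univ, true_and, Finset.mem_erase, mem_far]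
      constructor
      · intro hx
        by_cases ha : G.Adj v₀ x
        · exact Or.inl ⟨⟨x, ha⟩, hx, rfl⟩
        · exact Or.inr ⟨⟨hx.ne', fun e => ((mem_far v₀).1 hw).2 (e ▸ hx).symm, ha⟩, hx⟩
      · rintro (⟨p, hp, rfl⟩ | ⟨-, hx⟩)
        · exact hp
        · exact hx
    have hd : Disjoint (b.map (Function.Embedding.subtype _)) (S.filter fun x => G.Adj w x) := by
      rw [Finset.disjoint_left]
      intro x hx hx'
      obtain ⟨p, -, rfl⟩ := Finset.mem_map.1 hx
      exact ((mem_far v₀).1 (Finset.mem_of_mem_erase (Finset.mem_filter.1 hx').1)).2 p.2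
    have h1 := congrArg Finset.card e
    rw [Finset.card_union_of_disjoint hd, Finset.card_map, srg_deg h, card_blk h v₀ hw] at h1
    have h2 := Finset.card_filter_add_card_filter_not (s := S) (fun x => G.Adj w x)
    rw [Finset.card_erase_of_mem hw, card_far h v₀] at h2
    change _ + T.card = _ at h2
    omega
  have hsum : ∀ (F : V → ℕ), (∀ x ∈ S, x ∉ T → F x = 0) → ∑ x ∈ T, F x = ∑ x ∈ S, F x := fun F hF =>
    Finset.sum_subset (Finset.filter_subset _ _) hF
  have h1 : ∑ x ∈ T, (b ∩ blk G v₀ x).card = 120 := by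
    rw [hsum _ hk0]
    have hd := Finset.sum_card_bipartiteAbove_eq_sum_card_bipartiteBelow
      (s := b) (t := S) (fun p x => p ∈ blk G v₀ x)
    have e1 : ∀ p ∈ b, (S.bipartiteAbove (fun p x => p ∈ blk G v₀ x) p).card = 20 := fun p hp => by
      rw [Finset.bipartiteAbove, Finset.filter_erase, Finset.card_erase_of_mem (Finset.mem_filter.2 ⟨hw, hp⟩),
        far_through h v₀]
    rw [Finset.sum_congr rfl e1, Finset.sum_const, card_blk h v₀ hw] at hd
    refine Eq.trans (Finset.sum_congr rfl fun x _ => ?_) hd.symm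
    congr 1
  have h2 : ∑ x ∈ T, (b ∩ blk G v₀ x).card ^ 2 = 240 := by
    rw [hsum _ fun x hx hx' => by rw [hk0 x hx hx']; rfl]
    have hd := Finset.sum_card_bipartiteAbove_eq_sum_card_bipartiteBelow
      (s := b ×ˢ b) (t := S) (fun pq x => pq.1 ∈ blk G v₀ x ∧ pq.2 ∈ blk G v₀ x)
    have e1 : ∀ pq ∈ b ×ˢ b, (S.bipartiteAbove (fun pq x => pq.1 ∈ blk G v₀ x ∧ pq.2 ∈ blk G v₀ x) pq).card =
        if pq.1 = pq.2 then 20 else 4 := fun pq hpq => by
      obtain ⟨hp, hq⟩ := Finset.mem_product.1 hpq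
      rw [Finset.bipartiteAbove, Finset.filter_erase, Finset.card_erase_of_mem (Finset.mem_filter.2 ⟨hw, hp, hq⟩)]
      split_ifs with e
      · rw [← e]; simp only [and_self]; rw [far_through h v₀]
      · rw [far_through_two h v₀ e]
    rw [Finset.sum_congr rfl e1, Finset.sum_ite, Finset.sum_const, Finset.sum_const] at hd
    have hdiag : ((b ×ˢ b).filter fun pq => pq.1 = pq.2).card = 6 := by
      rw [← card_blk h v₀ hw]
      refine Finset.card_bij (fun pq _ => pq.1) (fun pq hpq => (Finset.mem_product.1 (Finset.mem_filter.1 hpq).1).1) ?_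
        fun p hp => ⟨(p, p), Finset.mem_filter.2 ⟨Finset.mem_product.2 ⟨hp, hp⟩, rfl⟩, rfl⟩
      intro x hx y hy e
      exact Prod.ext e ((Finset.mem_filter.1 hx).2.symm.trans (e.trans (Finset.mem_filter.1 hy).2))
    have hoff := Finset.card_filter_add_card_filter_not (s := b ×ˢ b) (fun pq => pq.1 = pq.2)
    rw [Finset.card_product, card_blk h v₀ hw, hdiag] at hoff
    rw [hdiag, show ((b ×ˢ b).filter fun pq => ¬ pq.1 = pq.2).card = 30 by omega] at hd
    refine Eq.trans (Finset.sum_congr rfl fun x _ => ?_) hd.symm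
    rw [pow_two, ← Finset.card_product]
    congr 1; ext pq; simp [Finset.bipartiteBelow]; tauto
  have hz : ∑ x ∈ T, (((b ∩ blk G v₀ x).card : ℤ) - 2) ^ 2 = 0 := by
    simp only [sub_sq, Finset.sum_add_distrib, Finset.sum_sub_distrib, ← Finset.sum_mul, ← Finset.mul_sum,
      Finset.sum_const, nsmul_eq_mul, hT]
    rw [show ∑ x ∈ T, ((b ∩ blk G v₀ x).card : ℤ) = 120 by exact_mod_cast h1,
      show ∑ x ∈ T, ((b ∩ blk G v₀ x).card : ℤ) ^ 2 = 240 by exact_mod_cast h2]
    norm_num
  have := (Finset.sum_eq_zero_iff_of_nonneg fun x _ => sq_nonneg _).1 hz w'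
    (Finset.mem_filter.2 ⟨Finset.mem_erase.2 ⟨hne.symm, hw'⟩, hna⟩)
  rw [pow_eq_zero_iff two_ne_zero, sub_eq_zero] at this
  exact_mod_cast this

theorem blk_injOn : Set.InjOn (blk G v₀) ↑(farSet G v₀) := by
  intro w hw w' hw' e
  by_contra hne
  by_cases ha : G.Adj w w'
  · have := blk_disjoint h v₀ ha
    rw [← e, disjoint_self, Finset.bot_eq_empty] at this
    have h6 := card_blk h v₀ (Finset.mem_coe.1 hw)
    rw [this, Finset.card_empty] at h6
    omega
  · have := blk_inter h v₀ (Finset.mem_coe.1 hw) (Finset.mem_coe.1 hw') hne ha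
    rw [← e, Finset.inter_self, card_blk h v₀ (Finset.mem_coe.1 hw)] at this
    omega

theorem blk_adj_iff {w w' : V} (hw : w ∈ farSet G v₀) (hw' : w' ∈ farSet G v₀) :
    G.Adj w w' ↔ Disjoint (blk G v₀ w) (blk G v₀ w') := by
  refine ⟨blk_disjoint h v₀, fun hd => ?_⟩
  by_contra hna
  rw [Finset.disjoint_iff_inter_eq_empty, ← Finset.card_eq_zero] at hd
  rcases eq_or_ne w w' with rfl | hne
  · rw [Finset.inter_self, card_blk h v₀ hw] at hd; omega
  · rw [blk_inter h v₀ hw hw' hne hna] at hd; omega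

theorem blk_steiner : IsSteinerSystem 3 6 (blk G v₀ '' ↑(farSet G v₀)) := by
  refine ⟨?_, fun s hs => ?_⟩
  · rintro _ ⟨w, hw, rfl⟩
    exact card_blk h v₀ hw
  have huniq : ∀ w ∈ farSet G v₀, ∀ w' ∈ farSet G v₀, ∀ t : Finset (Near G v₀), t.card = 3 →
      t ⊆ blk G v₀ w → t ⊆ blk G v₀ w' → w = w' := by
    intro w hw w' hw' t ht h1 h2
    by_contra hne
    have hle := Finset.card_le_card (Finset.subset_inter h1 h2)
    by_cases ha : G.Adj w w'
    · rw [Finset.disjoint_iff_inter_eq_empty.1 (blk_disjoint h v₀ ha), Finset.card_empty] at hle; omega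
    · rw [blk_inter h v₀ hw hw' hne ha] at hle; omega
  let S := (farSet G v₀).sigma fun w => (blk G v₀ w).powersetCard 3
  have himg : S.image Sigma.snd = (univ : Finset (Near G v₀)).powersetCard 3 := by
    refine Finset.eq_of_subset_of_card_le (fun t ht => ?_) ?_
    · obtain ⟨⟨w, t⟩, hx, rfl⟩ := Finset.mem_image.1 ht
      exact Finset.mem_powersetCard.2 ⟨Finset.subset_univ _, (Finset.mem_powersetCard.1 (Finset.mem_sigma.1 hx).2).2⟩
    · rw [Finset.card_image_of_injOn, Finset.card_sigma, Finset.sum_congr rfl fun w hw => by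
          rw [Finset.card_powersetCard, card_blk h v₀ hw],
        Finset.sum_const, card_far h v₀, Finset.card_powersetCard, Finset.card_univ, card_near h v₀]
      · decide
      · rintro ⟨w, t⟩ hx ⟨w', t'⟩ hy (e : t = t')
        subst e
        obtain ⟨hw, ht⟩ := Finset.mem_sigma.1 (Finset.mem_coe.1 hx)
        obtain ⟨hw', ht'⟩ := Finset.mem_sigma.1 (Finset.mem_coe.1 hy)
        obtain rfl := huniq w hw w' hw' t (Finset.mem_powersetCard.1 ht).2 (Finset.mem_powersetCard.1 ht).1
          (Finset.mem_powersetCard.1 ht').1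
        rfl
  have hmem : s ∈ S.image Sigma.snd := himg ▸ Finset.mem_powersetCard.2 ⟨Finset.subset_univ _, hs⟩
  obtain ⟨⟨w, t⟩, hx, rfl⟩ := Finset.mem_image.1 hmem
  obtain ⟨hw, ht⟩ := Finset.mem_sigma.1 hx
  refine ⟨blk G v₀ w, ⟨⟨w, hw, rfl⟩, (Finset.mem_powersetCard.1 ht).1⟩, ?_⟩
  rintro _ ⟨⟨w', hw', rfl⟩, hsub⟩
  rw [huniq w' hw' w hw _ hs hsub (Finset.mem_powersetCard.1 ht).1]

theorem srg_iso : Nonempty (pointBlockGraph (blk G v₀ '' ↑(farSet G v₀)) ≃g G) := by
  classical
  have hb : ∀ b : ↥(blk G v₀ '' ↑(farSet G v₀)), ∃ w, w ∈ farSet G v₀ ∧ blk G v₀ w = b := fun b => b.2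
  choose r hr hrb using hb
  let f : Option (Near G v₀ ⊕ ↥(blk G v₀ '' ↑(farSet G v₀))) → V := fun u =>
    u.elim v₀ (Sum.elim Subtype.val r)
  have hsurj : Function.Surjective f := fun x => by
    by_cases h1 : x = v₀
    · exact ⟨none, h1.symm⟩
    by_cases h2 : G.Adj v₀ x
    · exact ⟨some (Sum.inl ⟨x, h2⟩), rfl⟩
    · have hx : x ∈ farSet G v₀ := (mem_far v₀).2 ⟨h1, h2⟩
      exact ⟨some (Sum.inr ⟨_, x, hx, rfl⟩), blk_injOn h v₀ (hr _) hx (hrb _)⟩
  have hinj : Function.Injective f := by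
    rintro (_ | p | b) (_ | q | c) e
    · rfl
    · exact absurd ((show v₀ = q.1 from e).symm ▸ q.2) (G.irrefl)
    · exact absurd e.symm ((mem_far v₀).1 (hr c)).1
    · exact absurd ((show p.1 = v₀ from e) ▸ p.2) (G.irrefl)
    · exact congrArg (fun t => some (Sum.inl t)) (Subtype.ext e)
    · exact absurd ((show p.1 = r c from e) ▸ p.2) ((mem_far v₀).1 (hr c)).2
    · exact absurd e ((mem_far v₀).1 (hr b)).1
    · exact absurd ((show r b = q.1 from e).symm ▸ q.2) ((mem_far v₀).1 (hr b)).2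
    · refine congrArg (fun t => some (Sum.inr t)) (Subtype.ext ?_)
      rw [← hrb b, ← hrb c, show r b = r c from e]
  refine ⟨⟨Equiv.ofBijective f ⟨hinj, hsurj⟩, ?_⟩⟩
  intro u v
  show G.Adj (f u) (f v) ↔ _
  rcases u with _ | p | b <;> rcases v with _ | q | c <;>
    simp only [f, Option.elim_none, Option.elim_some, Sum.elim_inl, Sum.elim_inr,
      pointBlockGraph, SimpleGraph.fromRel_adj, pointBlockRel, ne_eq, not_true_eq_false, false_and,
      Option.some.injEq, reduceCtorEq, not_false_eq_true, Sum.inl.injEq, Sum.inr.injEq, or_false, false_or, and_false,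
      true_and, iff_false, iff_true, or_self]
  · exact G.irrefl
  · exact q.2
  · exact ((mem_far v₀).1 (hr c)).2
  · exact p.2.symm
  · exact fun ha => srg_triangle h p.2 q.2 ha
  · rw [← hrb c, mem_blk]; exact G.adj_comm _ _
  · exact fun ha => ((mem_far v₀).1 (hr b)).2 ha.symm
  · rw [← hrb b, mem_blk]
  · rw [blk_adj_iff h v₀ (hr b) (hr c), hrb, hrb, disjoint_comm (a := (c : Finset (Near G v₀))), or_self,
      iff_and_self]
    rintro hd rfl
    rw [disjoint_self, Finset.bot_eq_empty] at hd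
    have := card_blk h v₀ (hr b)
    rw [hrb, hd, Finset.card_empty] at this
    omega

end Cfsg.Agent.Lib.Steiner
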